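/-
Quadratic geometry inside a non-degenerate subspace: nonsingular vectors, perpendicular subspaces, universality of
non-degenerate subspaces of dimension at least two, and vectors with prescribed norm and inner product.
-/
import Mathlib
import Cfsg.Agent.Lib.Classical.Orth.Basic
import Cfsg.Prelude.Def_GeometricClasses

set_option autoImplicit false
set_option linter.unusedSectionVars false
set_option linter.unusedSimpArgs false
set_option linter.unusedVariables false

namespace Cfsg.Agent.Lib.Classical.Decomp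

open Matrix QuadraticMap Module Cfsg.Geo
open Cfsg.Agent.Lib.Classical.Orth.Basic

variable {ι : Type} [Fintype ι] [DecidableEq ι] {F : Type*} [Field F]
variable {Q : QuadraticForm F (ι → F)}

set_option quotPrecheck false in
local notation "𝔣" => polar (⇑Q)

/-- The perp of `a` inside `E`. -/
def perpIn (Q : QuadraticForm F (ι → F)) (E : Submodule F (ι → F)) (a : ι → F) : Submodule F (ι → F) :=
  E ⊓ LinearMap.ker (polarBilin Q a)

theorem mem_perpIn {E : Submodule F (ι → F)} {a x : ι → F} : x ∈ perpIn Q E a ↔ x ∈ E ∧ 𝔣 a x = 0 := by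
  simp [perpIn, Submodule.mem_inf, LinearMap.mem_ker]

/-- Sum of two vectors orthogonal. -/
theorem Q_add_of_perp {x y : ι → F} (h : 𝔣 x y = 0) : Q (x + y) = Q x + Q y := by
  rw [Q_add, h, add_zero]

theorem finrank_perpIn_add {E : Submodule F (ι → F)} {a : ι → F} (haE : a ∈ E) (h2 : (2 : F) ≠ 0)
    (ha : Q a ≠ 0) : finrank F (perpIn Q E a) + 1 = finrank F E := by
  -- the functional `f a` on `E`
  set φ : E →ₗ[F] F := (polarBilin Q a).comp E.subtype with hφ
  have hφa : φ ⟨a, haE⟩ ≠ 0 := by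
    simp only [hφ, LinearMap.comp_apply, Submodule.subtype_apply, polarBilin_apply_apply, polar_self_eq]
    exact mul_ne_zero h2 ha
  have hr : finrank F (LinearMap.range φ) = 1 := by
    have : LinearMap.range φ = ⊤ := by
      rw [LinearMap.range_eq_top]
      intro y
      refine ⟨(y * (φ ⟨a, haE⟩)⁻¹) • ⟨a, haE⟩, ?_⟩
      rw [map_smul, smul_eq_mul, mul_assoc, inv_mul_cancel₀ hφa, mul_one]
    rw [this, finrank_top, finrank_self]
  have hker := LinearMap.finrank_range_add_finrank_ker φ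
  have hk : finrank F (perpIn Q E a) = finrank F (LinearMap.ker φ) := by
    have : LinearMap.ker φ = (perpIn Q E a).comap E.subtype := by
      ext x
      simp [hφ, mem_perpIn, LinearMap.mem_ker]
    rw [this]
    have hle : perpIn Q E a ≤ E := inf_le_left
    rw [← Submodule.finrank_map_subtype_eq, Submodule.map_comap_subtype, inf_eq_right.2 hle]
  omega

theorem nondeg_perpIn {E : Submodule F (ι → F)} (hE : IsNondegenerateOn (polar (⇑Q)) E) {a : ι → F}
    (haE : a ∈ E) (h2 : (2 : F) ≠ 0) (ha : Q a ≠ 0) : IsNondegenerateOn (polar (⇑Q)) (perpIn Q E a) := by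
  have key : ∀ w ∈ perpIn Q E a, w ≠ 0 → ∃ x ∈ perpIn Q E a, 𝔣 w x ≠ 0 := by
    intro w hw hw0
    obtain ⟨hwE, hwa⟩ := mem_perpIn.1 hw
    obtain ⟨-, y, hy, hyw⟩ := hE w hwE hw0
    have h2a : 𝔣 a a ≠ 0 := by
      rw [polar_self_eq]
      exact mul_ne_zero h2 ha
    refine ⟨y - (𝔣 a y * (𝔣 a a)⁻¹) • a, ?_, ?_⟩
    · refine mem_perpIn.2 ⟨E.sub_mem hy (E.smul_mem _ haE), ?_⟩
      rw [polar_sub_right, polar_smul_right', mul_assoc, inv_mul_cancel₀ h2a, mul_one, sub_self]
    · rw [polar_sub_right, polar_smul_right', polar_comm (⇑Q) w a, hwa, mul_zero, sub_zero]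
      exact hyw
  intro w hw hw0
  obtain ⟨x, hx, hwx⟩ := key w hw hw0
  exact ⟨⟨x, hx, by rw [polar_comm]; exact hwx⟩, ⟨x, hx, hwx⟩⟩

/-- A nonzero non-degenerate subspace has a nonsingular vector. -/
theorem exists_nonsing {E : Submodule F (ι → F)} (hE : IsNondegenerateOn (polar (⇑Q)) E)
    (hpos : 0 < finrank F E) : ∃ v ∈ E, Q v ≠ 0 := by
  obtain ⟨w, hw, hw0⟩ : ∃ w ∈ E, w ≠ 0 := by
    have : Nontrivial E := Module.nontrivial_of_finrank_pos (R := F) hpos
    obtain ⟨⟨w, hw⟩, hw0⟩ := exists_ne (0 : E)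
    exact ⟨w, hw, fun h => hw0 (Subtype.ext h)⟩
  by_contra hcon
  push Not at hcon
  obtain ⟨-, y, hy, hyw⟩ := hE w hw hw0
  apply hyw
  simp only [polar]
  rw [hcon _ (E.add_mem hw hy), hcon _ hw, hcon _ hy]
  simp

variable [Fintype F]

/-- Non-degenerate subspaces of dimension at least two represent every value. -/
theorem universal (h2 : (2 : F) ≠ 0) {E : Submodule F (ι → F)} (hE : IsNondegenerateOn (polar (⇑Q)) E)
    (hdim : 2 ≤ finrank F E) (s : F) : ∃ v ∈ E, Q v = s := by
  classical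
  obtain ⟨v₁, hv₁, hv₁0⟩ := exists_nonsing hE (by omega)
  have hE' := nondeg_perpIn hE hv₁ h2 hv₁0
  have hd := finrank_perpIn_add hv₁ h2 hv₁0
  obtain ⟨v₂, hv₂, hv₂0⟩ := exists_nonsing hE' (by omega)
  obtain ⟨hv₂E, h12⟩ := mem_perpIn.1 hv₂
  have hodd : Fintype.card F % 2 = 1 := by
    have hne : ringChar F ≠ 2 := by
      intro h
      apply h2
      have : CharP F 2 := ringChar.of_eq h
      exact CharTwo.two_eq_zero
    exact FiniteField.odd_card_of_char_ne_two hne
  let P : Polynomial F := Polynomial.C (Q v₁) * Polynomial.X ^ 2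
  let R : Polynomial F := Polynomial.C (Q v₂) * Polynomial.X ^ 2 + Polynomial.C (-s)
  have hP : P.degree = 2 := Polynomial.degree_C_mul_X_pow 2 hv₁0
  have hR : R.degree = 2 := by
    have h1 : (Polynomial.C (Q v₂) * Polynomial.X ^ 2 : Polynomial F).degree = 2 :=
      Polynomial.degree_C_mul_X_pow 2 hv₂0
    rw [Polynomial.degree_add_C (by rw [h1]; norm_num)]
    exact h1
  obtain ⟨α, β, h⟩ := FiniteField.exists_root_sum_quadratic hP hR hodd
  simp only [P, R, Polynomial.eval_add, Polynomial.eval_mul, Polynomial.eval_C, Polynomial.eval_pow,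
    Polynomial.eval_X] at h
  refine ⟨α • v₁ + β • v₂, E.add_mem (E.smul_mem _ hv₁) (E.smul_mem _ hv₂E), ?_⟩
  rw [Q_add, Q_smul, Q_smul, polar_smul_left', polar_smul_right', h12]
  linear_combination h

/-- Vectors with prescribed norm and prescribed inner product with a given vector. -/
theorem exists_norm_pair (h2 : (2 : F) ≠ 0) {E : Submodule F (ι → F)}
    (hE : IsNondegenerateOn (polar (⇑Q)) E) (hdim : 3 ≤ finrank F E) {x : ι → F} (hxE : x ∈ E) (hx : x ≠ 0)
    (e s : F) (h : e ≠ 0 ∨ Q x ≠ 0) : ∃ u ∈ E, 𝔣 x u = e ∧ Q u = s := by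
  by_cases hQx : Q x = 0
  · have he : e ≠ 0 := h.resolve_right (by simpa using hQx)
    obtain ⟨-, p, hp, hxp⟩ := hE x hxE hx
    obtain ⟨p', hp'E, h1⟩ : ∃ p' ∈ E, 𝔣 x p' = e :=
      ⟨(e * (𝔣 x p)⁻¹) • p, E.smul_mem _ hp, by
        rw [polar_smul_right', mul_assoc, inv_mul_cancel₀ hxp, mul_one]⟩
    refine ⟨p' + ((s - Q p') * e⁻¹) • x, E.add_mem hp'E (E.smul_mem _ hxE), ?_, ?_⟩
    · rw [polar_add_right, polar_smul_right', polar_self_eq, hQx, h1]
      ring
    · rw [Q_add, Q_smul, hQx, polar_smul_right', polar_comm, h1]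
      field_simp
      ring
  · have hd := finrank_perpIn_add hxE h2 hQx
    have hE' := nondeg_perpIn hE hxE h2 hQx
    set l := e * (2 * Q x)⁻¹ with hl
    have h2Q : 2 * Q x ≠ 0 := mul_ne_zero h2 hQx
    obtain ⟨w, hw, hQw⟩ := universal h2 hE' (by omega) (s - l * l * Q x)
    obtain ⟨hwE, hxw⟩ := mem_perpIn.1 hw
    refine ⟨l • x + w, E.add_mem (E.smul_mem _ hxE) hwE, ?_, ?_⟩
    · rw [polar_add_right, polar_smul_right', polar_self_eq, hxw, hl]
      field_simp
      ring
    · rw [Q_add, Q_smul, hQw, polar_smul_left', hxw]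
      ring

end Cfsg.Agent.Lib.Classical.Decomp
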