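/-
Orthogonal decompositions with projections: components, norm and polar form as sums over the components, the stabiliser of the
decomposition, elements permuting the members.
-/
import Mathlib
import Cfsg.Agent.Lib.Classical.Decomp.Base
import Cfsg.Agent.Lib.Classical.Geo.Decomp
import Cfsg.Agent.Lib.Classical.Geo.Basic

set_option autoImplicit false
set_option linter.unusedSectionVars false
set_option linter.unusedSimpArgs false
set_option linter.unusedVariables false

namespace Cfsg.Agent.Lib.Classical.Decomp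

open Matrix QuadraticMap Module Cfsg.Geo
open Cfsg.Agent.Lib.Classical.Orth.Basic

variable {ι : Type} [Fintype ι] [DecidableEq ι] {F : Type*} [Field F]
variable {Q : QuadraticForm F (ι → F)}

set_option quotPrecheck false in
local notation "𝔣" => polar (⇑Q)

/-- A non-degenerate orthogonal decomposition with its projections. -/
structure Dec (Q : QuadraticForm F (ι → F)) {t : ℕ} (k : ℕ) (D : Fin t → Submodule F (ι → F))
    (π : Fin t → (ι → F) →ₗ[F] (ι → F)) : Prop where
  mem : ∀ i x, π i x ∈ D i
  idem : ∀ i x, x ∈ D i → π i x = x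
  zero : ∀ i j x, i ≠ j → x ∈ D j → π i x = 0
  sum : ∀ x, ∑ i, π i x = x
  orth : ∀ i j, i ≠ j → ∀ u ∈ D i, ∀ v ∈ D j, polar (⇑Q) u v = 0
  nd : ∀ i, IsNondegenerateOn (polar (⇑Q)) (D i)
  dim : ∀ i, finrank F (D i) = k

theorem exists_dec {t k : ℕ} {D : Fin t → Submodule F (ι → F)}
    (hD : IsNondegenerateMDecomposition (polar (⇑Q)) k D) : ∃ π, Dec Q k D π := by
  obtain ⟨π, h1, h2, h3, h4⟩ := Cfsg.Agent.Lib.Classical.Geo.Decomp.exists_projections hD.decomp.indep
    hD.decomp.iSup_eq_top
  exact ⟨π, h1, h2, h3, h4, hD.orthogonal, hD.nondegenerate, hD.decomp.finrank_eq⟩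

variable {t k : ℕ} {D : Fin t → Submodule F (ι → F)} {π : Fin t → (ι → F) →ₗ[F] (ι → F)}

namespace Dec

variable (dec : Dec Q k D π)
include dec

theorem pi_pi (i : Fin t) (x : ι → F) : π i (π i x) = π i x := dec.idem i _ (dec.mem i x)

theorem pi_pi_ne {i j : Fin t} (h : i ≠ j) (x : ι → F) : π i (π j x) = 0 := dec.zero i j _ h (dec.mem j x)

theorem ext {x y : ι → F} (h : ∀ i, π i x = π i y) : x = y := by
  rw [← dec.sum x, ← dec.sum y]
  exact Finset.sum_congr rfl (fun i _ => h i)

/-- The polar form against a member only sees the component. -/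
theorem polar_comp {i : Fin t} {u : ι → F} (hu : u ∈ D i) (y : ι → F) : 𝔣 u y = 𝔣 u (π i y) := by
  conv_lhs => rw [← dec.sum y]
  have h : ∀ s : Finset (Fin t), 𝔣 u (∑ j ∈ s, π j y) = ∑ j ∈ s, 𝔣 u (π j y) := by
    intro s
    have := map_sum (polarBilin Q u) (fun j => π j y) s
    simpa only [polarBilin_apply_apply] using this
  rw [h, Finset.sum_eq_single i]
  · intro j _ hj
    exact dec.orth i j hj.symm u hu _ (dec.mem j y)
  · simp

theorem polar_comp' {i : Fin t} {u : ι → F} (hu : u ∈ D i) (y : ι → F) : 𝔣 y u = 𝔣 (π i y) u := by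
  rw [polar_comm, dec.polar_comp hu y, polar_comm]

theorem polar_sum (x y : ι → F) : 𝔣 x y = ∑ i, 𝔣 (π i x) (π i y) := by
  conv_lhs => rw [← dec.sum x]
  have h : ∀ s : Finset (Fin t), 𝔣 (∑ j ∈ s, π j x) y = ∑ j ∈ s, 𝔣 (π j x) y := by
    intro s
    induction s using Finset.induction_on with
    | empty => simp
    | insert a s ha ih =>
      rw [Finset.sum_insert ha, Finset.sum_insert ha, polar_add_left, ih]
  rw [h]
  exact Finset.sum_congr rfl (fun i _ => dec.polar_comp (dec.mem i x) y)

theorem Q_sum (x : ι → F) : Q x = ∑ i, Q (π i x) := by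
  conv_lhs => rw [← dec.sum x]
  have h : ∀ s : Finset (Fin t), Q (∑ j ∈ s, π j x) = ∑ j ∈ s, Q (π j x) := by
    intro s
    induction s using Finset.induction_on with
    | empty => simp
    | insert a s ha ih =>
      rw [Finset.sum_insert ha, Finset.sum_insert ha, Q_add_of_perp, ih]
      have : ∀ s' : Finset (Fin t), a ∉ s' → 𝔣 (π a x) (∑ j ∈ s', π j x) = 0 := by
        intro s' hs'
        have := map_sum (polarBilin Q (π a x)) (fun j => π j x) s'
        simp only [polarBilin_apply_apply] at this
        rw [this]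
        apply Finset.sum_eq_zero
        intro j hj
        exact dec.orth a j (fun h => hs' (h ▸ hj)) _ (dec.mem a x) _ (dec.mem j x)
      exact this s ha
  exact h _

theorem mem_of_zero {i : Fin t} {x : ι → F} (h : ∀ j, j ≠ i → π j x = 0) : x ∈ D i := by
  have : x = π i x := by
    apply dec.ext
    intro j
    by_cases hj : j = i
    · subst hj
      rw [dec.pi_pi]
    · rw [h j hj, dec.zero j i _ hj (dec.mem i x)]
  rw [this]
  exact dec.mem i x

theorem eq_two {i j : Fin t} (hij : i ≠ j) {x : ι → F} (h : ∀ l, l ≠ i → l ≠ j → π l x = 0) :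
    x = π i x + π j x := by
  apply dec.ext
  intro l
  rw [map_add]
  by_cases hl : l = i
  · subst hl
    rw [dec.pi_pi, dec.pi_pi_ne hij, add_zero]
  · by_cases hl' : l = j
    · subst hl'
      rw [dec.pi_pi, dec.pi_pi_ne hl, zero_add]
    · rw [h l hl hl', dec.pi_pi_ne hl, dec.pi_pi_ne hl', add_zero]

/-- Members with distinct indices intersect trivially. -/
theorem eq_zero_of_mem_mem {i j : Fin t} (hij : i ≠ j) {x : ι → F} (hi : x ∈ D i) (hj : x ∈ D j) : x = 0 := by
  rw [← dec.idem i x hi]
  exact dec.zero i j x hij hj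

/-- A nonzero vector in no member has two nonzero components. -/
theorem exists_two_comps {x : ι → F} (hx : x ≠ 0) (h : ∀ i, x ∉ D i) :
    ∃ i j, i ≠ j ∧ π i x ≠ 0 ∧ π j x ≠ 0 := by
  by_contra hcon
  push Not at hcon
  have : ∃ i, π i x ≠ 0 := by
    by_contra h0
    push Not at h0
    apply hx
    rw [← dec.sum x]
    exact Finset.sum_eq_zero (fun i _ => h0 i)
  obtain ⟨i, hi⟩ := this
  apply h i
  apply dec.mem_of_zero
  intro j hj
  exact hcon i j (Ne.symm hj) hi

end Dec

section Stab

variable (dec : Dec Q k D π)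
include dec

/-- A matrix mapping each member into a member (through a permutation) lies in the stabiliser. -/
theorem mem_stab_of_perm (g : GL ι F) (σ : Equiv.Perm (Fin t))
    (h : ∀ i x, x ∈ D i → (g : Matrix ι ι F) *ᵥ x ∈ D (σ i)) : g ∈ decompositionStabilizer D := by
  refine ⟨σ, fun i => ?_⟩
  apply Submodule.eq_of_le_of_finrank_eq
  · rintro _ ⟨x, hx, rfl⟩
    exact h i x hx
  · have := Cfsg.Agent.Lib.Classical.Geo.Basic.finrank_act g (D i)
    unfold Cfsg.Agent.Lib.Classical.Geo.Basic.act at this
    rw [this, dec.dim, dec.dim]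

/-- A matrix mapping each member into some member lies in the stabiliser. -/
theorem mem_stab_of_maps (hk : 0 < k) (g : GL ι F)
    (h : ∀ i, ∃ j, ∀ x, x ∈ D i → (g : Matrix ι ι F) *ᵥ x ∈ D j) : g ∈ decompositionStabilizer D := by
  classical
  choose τ hτ using h
  have hinj : Function.Injective τ := by
    intro i i' hii
    by_contra hne
    -- the images of the two members fill the same member
    have h1 : (D i).map (Matrix.toLin' (g : Matrix ι ι F)) = D (τ i) := by
      apply Submodule.eq_of_le_of_finrank_eq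
      · rintro _ ⟨x, hx, rfl⟩
        exact hτ i x hx
      · have := Cfsg.Agent.Lib.Classical.Geo.Basic.finrank_act g (D i)
        unfold Cfsg.Agent.Lib.Classical.Geo.Basic.act at this
        rw [this, dec.dim, dec.dim]
    have hpos : 0 < finrank F (D i) := by rw [dec.dim]; exact hk
    obtain ⟨x, hx, hx0⟩ : ∃ x ∈ D i, x ≠ 0 := by
      have : Nontrivial (D i) := Module.nontrivial_of_finrank_pos (R := F) hpos
      obtain ⟨⟨w, hw⟩, hw0⟩ := exists_ne (0 : D i)
      exact ⟨w, hw, fun h => hw0 (Subtype.ext h)⟩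
    have h2 : (g : Matrix ι ι F) *ᵥ x ∈ D (τ i') := by
      rw [← hii]
      exact hτ i x hx
    have h1' : (D i').map (Matrix.toLin' (g : Matrix ι ι F)) = D (τ i') := by
      apply Submodule.eq_of_le_of_finrank_eq
      · rintro _ ⟨x, hx, rfl⟩
        exact hτ i' x hx
      · have := Cfsg.Agent.Lib.Classical.Geo.Basic.finrank_act g (D i')
        unfold Cfsg.Agent.Lib.Classical.Geo.Basic.act at this
        rw [this, dec.dim, dec.dim]
    rw [← h1'] at h2
    obtain ⟨y, hy, hyx⟩ := h2
    have hxy : y = x := Cfsg.Agent.Lib.Classical.Geo.Basic.mulVec_injective g hyx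
    subst hxy
    exact hx0 (dec.eq_zero_of_mem_mem hne hx hy)
  exact mem_stab_of_perm dec g (Equiv.ofBijective τ (Finite.injective_iff_bijective.1 hinj)) hτ

end Stab

end Cfsg.Agent.Lib.Classical.Decomp
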