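/-
Odd dimension, odd characteristic: the involutions `-r_v` in `Ω`, the set `SS` of vectors of a fixed norm `c` with `-r_v ∈ M`, and
the moves provided by the stabiliser of an orthogonal decomposition.
-/
import Mathlib
import Cfsg.Agent.Lib.Classical.Decomp.Dec
import Cfsg.Agent.Lib.Classical.Orth.Spinor
import Cfsg.Agent.Lib.Classical.Orth.ReflClass

set_option autoImplicit false
set_option linter.unusedSectionVars false
set_option linter.unusedSimpArgs false
set_option linter.unusedVariables false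

namespace Cfsg.Agent.Lib.Classical.Decomp

open Matrix QuadraticMap Module Cfsg.Geo
open Cfsg.Agent.Lib.Classical.Orth.Basic
open Cfsg.Agent.Lib.Classical.Orth.Spinor
open Cfsg.Agent.Lib.Classical.Orth.CartanDieudonne

variable {ι : Type} [Fintype ι] [DecidableEq ι] {F : Type*} [Field F]
variable {Q : QuadraticForm F (ι → F)}

set_option quotPrecheck false in
local notation "𝔣" => polar (⇑Q)
set_option quotPrecheck false in
local notation "𝕀" => ↥(Cfsg.isometryGroup F (⇑Q))

variable (Q) in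
/-- `-1` as an isometry. -/
noncomputable def negOne : ↥(Cfsg.isometryGroup F (⇑Q)) :=
  ⟨-1, (mem_isometryGroup_iff Q _).2 (fun x => by
    rw [Units.val_neg, Units.val_one, Matrix.neg_mulVec, Matrix.one_mulVec, QuadraticMap.map_neg])⟩

theorem act_negOne (x : ι → F) : act (negOne Q) x = -x := by
  change (((-1 : GL ι F) : GL ι F) : Matrix ι ι F) *ᵥ x = -x
  rw [Units.val_neg, Units.val_one, Matrix.neg_mulVec, Matrix.one_mulVec]

theorem negOne_comm (g : 𝕀) : negOne Q * g = g * negOne Q := by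
  apply ext_act
  intro x
  rw [act_mul, act_mul, act_negOne, act_negOne, act_neg]

variable [Fintype F]

theorem det_eq_signs (hQ : (polarBilin Q).Nondegenerate) (h2 : (2 : F) ≠ 0) (g : 𝕀) :
    ((g : GL ι F) : Matrix ι ι F).det = (((plusSign Q g * spinorSign Q h2 g : ℤˣ) : ℤ) : F) := by
  classical
  induction g using isometry_induction Q hQ h2 with
  | h1 => simp
  | hstep v hv g ih =>
    have hdet : ((reflectionIso Q v hv * g : 𝕀) : GL ι F) = (reflectionIso Q v hv : GL ι F) * (g : GL ι F) := rfl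
    rw [hdet, Units.val_mul, Matrix.det_mul]
    have h1 : (((reflectionIso Q v hv : 𝕀) : GL ι F) : Matrix ι ι F).det = -1 := det_reflectionMatrix Q hv
    rw [h1, ih, map_mul, map_mul, plusSign_reflection Q h2, spinorSign_reflection Q h2]
    by_cases h : IsSquare (Q v)
    · simp only [if_pos h]
      have : ((-1 : ℤˣ) * plusSign Q g * (1 * spinorSign Q h2 g)) = -(plusSign Q g * spinorSign Q h2 g) := by
        simp
      rw [this]
      simp
    · simp only [if_neg h]
      have : ((1 : ℤˣ) * plusSign Q g * (-1 * spinorSign Q h2 g)) = -(plusSign Q g * spinorSign Q h2 g) := by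
        simp
      rw [this]
      simp

theorem signs_negOne (hQ : (polarBilin Q).Nondegenerate) (h2 : (2 : F) ≠ 0) (hodd : Odd (Fintype.card ι)) :
    plusSign Q (negOne Q) * spinorSign Q h2 (negOne Q) = -1 := by
  have h1 := det_eq_signs hQ h2 (negOne Q)
  have h3 : (((negOne Q : 𝕀) : GL ι F) : Matrix ι ι F).det = -1 := by
    change (((-1 : GL ι F) : GL ι F) : Matrix ι ι F).det = -1
    rw [Units.val_neg, Units.val_one, Matrix.det_neg, Matrix.det_one, mul_one, hodd.neg_one_pow]
  rw [h3] at h1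
  rcases Int.units_eq_one_or (plusSign Q (negOne Q) * spinorSign Q h2 (negOne Q)) with h | h
  · rw [h] at h1
    exfalso
    apply h2
    simp only [Units.val_one, Int.cast_one] at h1
    linear_combination -h1
  · exact h

/-- Exactly one norm class `c` of vectors has `-r_v ∈ Ω`. -/
theorem exists_good_class (hQ : (polarBilin Q).Nondegenerate) (h2 : (2 : F) ≠ 0) (hodd : Odd (Fintype.card ι)) :
    ∃ c : F, c ≠ 0 ∧ ∀ (v : ι → F) (hv : Q v ≠ 0),
      negOne Q * reflectionIso Q v hv ∈ Cfsg.Omega F (⇑Q) ↔ IsSquare (Q v / c) := by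
  classical
  have hs := signs_negOne hQ h2 hodd
  rcases Int.units_eq_one_or (plusSign Q (negOne Q)) with hp | hp
  · -- `-1` has plus sign `1`, spinor sign `-1`
    have hs' : spinorSign Q h2 (negOne Q) = -1 := by
      rw [hp, one_mul] at hs
      exact hs
    refine ⟨nonsq h2, nonsq_ne_zero h2, fun v hv => ?_⟩
    rw [mem_omega_iff Q hQ h2, map_mul, map_mul, hp, hs', one_mul, plusSign_reflection Q h2,
      spinorSign_reflection Q h2]
    by_cases h : IsSquare (Q v)
    · simp only [if_pos h]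
      constructor
      · rintro ⟨h4, -⟩
        exact absurd h4 (by decide)
      · intro h3
        exfalso
        have h5 := h3.mul (isSquare_iff_exists_sq (nonsq h2 * nonsq h2) |>.2 ⟨nonsq h2, by ring⟩)
        have h6 : Q v / nonsq h2 * (nonsq h2 * nonsq h2) = Q v * nonsq h2 := by
          have := nonsq_ne_zero h2
          field_simp
        rw [h6] at h5
        have h7 := (h5.div h)
        rw [mul_div_cancel_left₀ _ hv] at h7
        exact nonsq_spec h2 h7
    · simp only [if_neg h]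
      constructor
      · intro _
        exact isSquare_div_of_not_isSquare (nonsq_ne_zero h2) hv h (nonsq_spec h2)
      · intro _
        constructor
        · simp
        · simp
  · have hs' : spinorSign Q h2 (negOne Q) = 1 := by
      rw [hp] at hs
      have h3 : (-1 : ℤˣ) * spinorSign Q h2 (negOne Q) = -1 := hs
      simpa using h3
    refine ⟨1, one_ne_zero, fun v hv => ?_⟩
    rw [mem_omega_iff Q hQ h2, map_mul, map_mul, hp, hs', one_mul, plusSign_reflection Q h2,
      spinorSign_reflection Q h2, div_one]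
    by_cases h : IsSquare (Q v)
    · simp only [if_pos h]
      simp [h]
    · simp only [if_neg h]
      simp [h]


/-! ### The set `SS` -/

/-- Vectors of norm `c` with `-r_x ∈ M`. -/
def SS (Q : QuadraticForm F (ι → F)) (M : Subgroup (GL ι F)) (c : F) : Set (ι → F) :=
  {x | Q x = c ∧ ∃ hx : Q x ≠ 0, ((negOne Q * reflectionIso Q x hx : ↥(Cfsg.isometryGroup F (⇑Q))) : GL ι F) ∈ M}

variable {M : Subgroup (GL ι F)} {c : F}

theorem SS_act (g : 𝕀) (hg : (g : GL ι F) ∈ M) {x : ι → F} (hx : x ∈ SS Q M c) : act g x ∈ SS Q M c := by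
  obtain ⟨h1, h2, h3⟩ := hx
  refine ⟨by rw [Q_act]; exact h1, by rw [Q_act]; exact h2, ?_⟩
  have hconj : g * (negOne Q * reflectionIso Q x h2) * g⁻¹ =
      negOne Q * reflectionIso Q (act g x) (by rw [Q_act]; exact h2) := by
    rw [← conj_reflectionIso g x h2, ← mul_assoc, ← negOne_comm, mul_assoc (negOne Q) g, mul_assoc (negOne Q)]
  rw [← hconj]
  exact M.mul_mem (M.mul_mem hg h3) (M.inv_mem hg)

theorem SS_neg {x : ι → F} (hx : x ∈ SS Q M c) : -x ∈ SS Q M c := by
  obtain ⟨h1, h2, h3⟩ := hx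
  have hQ' : Q (-x) = Q x := QuadraticMap.map_neg _ _
  refine ⟨by rw [hQ']; exact h1, by rw [hQ']; exact h2, ?_⟩
  have hneg : (-x : ι → F) = (-1 : F) • x := by simp
  have hr : reflectionIso Q (-x) (by rw [hQ']; exact h2) = reflectionIso Q x h2 := by
    apply Subtype.ext
    apply Units.ext
    change Cfsg.reflectionMatrix (⇑Q) (-x) = Cfsg.reflectionMatrix (⇑Q) x
    rw [hneg]
    exact reflectionMatrix_smul Q (-1) (by simp) x h2
  rw [hr]
  exact h3

theorem SS_refl {a x : ι → F} (ha : a ∈ SS Q M c) (hx : x ∈ SS Q M c) (ha0 : Q a ≠ 0) :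
    act (reflectionIso Q a ha0) x ∈ SS Q M c := by
  obtain ⟨h1, h2, h3⟩ := ha
  have h4 := SS_act (negOne Q * reflectionIso Q a h2) h3 hx
  rw [act_mul, act_negOne] at h4
  have := SS_neg h4
  rwa [neg_neg] at this

/-- The data. -/
structure Setup (Q : QuadraticForm F (ι → F)) {t : ℕ} (k : ℕ) (D : Fin t → Submodule F (ι → F))
    (π : Fin t → (ι → F) →ₗ[F] (ι → F)) (M : Subgroup (GL ι F)) (c : F) : Prop where
  dec : Dec Q k D π
  hQ : (polarBilin Q).Nondegenerate
  h2 : (2 : F) ≠ 0
  hc : c ≠ 0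
  good : ∀ (v : ι → F) (hv : Q v ≠ 0), negOne Q * reflectionIso Q v hv ∈ Cfsg.Omega F (⇑Q) ↔ IsSquare (Q v / c)
  le : decompositionStabilizer D ⊓ omegaGL (⇑Q) ≤ M
  dim3 : 3 ≤ k

variable {t k : ℕ} {D : Fin t → Submodule F (ι → F)} {π : Fin t → (ι → F) →ₗ[F] (ι → F)}

namespace Setup

variable (S : Setup Q k D π M c)
include S

theorem hdim (i : Fin t) : 3 ≤ finrank F (D i) := by
  rw [S.dec.dim]
  exact S.dim3

theorem mem_M (g : 𝕀) (h1 : g ∈ Cfsg.Omega F (⇑Q)) (h3 : (g : GL ι F) ∈ decompositionStabilizer D) :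
    (g : GL ι F) ∈ M :=
  S.le ⟨h3, ⟨g, h1, rfl⟩⟩

theorem refl_stab {i : Fin t} {w : ι → F} (hw : w ∈ D i) (hw0 : Q w ≠ 0) :
    ((reflectionIso Q w hw0 : 𝕀) : GL ι F) ∈ decompositionStabilizer D := by
  apply mem_stab_of_perm S.dec _ 1
  intro j x hx
  change act (reflectionIso Q w hw0) x ∈ D j
  rw [reflectionIso_act]
  by_cases hj : j = i
  · subst hj
    exact (D j).sub_mem hx ((D j).smul_mem _ hw)
  · have : 𝔣 w x = 0 := S.dec.orth i j (Ne.symm hj) w hw x hx
    rw [this]
    simpa using hx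

theorem negOne_stab : ((negOne Q : 𝕀) : GL ι F) ∈ decompositionStabilizer D := by
  apply mem_stab_of_perm S.dec _ 1
  intro j x hx
  change act (negOne Q) x ∈ D j
  rw [act_negOne]
  exact (D j).neg_mem hx

/-- Vectors of norm `c` in the members lie in `SS`. -/
theorem mem_SS_of_mem {i : Fin t} {w : ι → F} (hw : w ∈ D i) (hQw : Q w = c) : w ∈ SS Q M c := by
  have h0 : Q w ≠ 0 := by rw [hQw]; exact S.hc
  refine ⟨hQw, h0, ?_⟩
  apply S.mem_M
  · rw [S.good, hQw, div_self S.hc]
    exact IsSquare.one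
  · exact (decompositionStabilizer D).mul_mem S.negOne_stab (S.refl_stab hw h0)

/-- Products of two reflections in the same class. -/
theorem move_two {a w w' : ι → F} {i j : Fin t} (ha : a ∈ SS Q M c) (hw : w ∈ D i) (hw' : w' ∈ D j)
    (h0 : Q w ≠ 0) (h0' : Q w' ≠ 0) (hsq : IsSquare (Q w / Q w')) :
    act (reflectionIso Q w' h0' * reflectionIso Q w h0) a ∈ SS Q M c := by
  apply SS_act _ _ ha
  apply S.mem_M
  · exact reflection_mul_mem_omega Q S.h2 w w' h0 h0' hsq
  · exact (decompositionStabilizer D).mul_mem (S.refl_stab hw' h0') (S.refl_stab hw h0)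

/-- Any element of the isometry group stabilising the decomposition moves `SS` to `SS`, provided that the image
has a nonsingular component. -/
theorem move (h : 𝕀) (hh : (h : GL ι F) ∈ decompositionStabilizer D) {a : ι → F} (ha : a ∈ SS Q M c) (i : Fin t)
    (hi : Q (π i (act h a)) ≠ 0) : act h a ∈ SS Q M c := by
  classical
  set b := π i (act h a) with hb
  have hbE : b ∈ D i := S.dec.mem i _
  have hE := nondeg_perpIn (S.dec.nd i) hbE S.h2 hi
  have hd := finrank_perpIn_add hbE S.h2 hi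
  have hd3 := S.hdim i
  obtain ⟨w₁, hw₁, hQw₁⟩ := universal S.h2 hE (by omega) 1
  obtain ⟨w₂, hw₂, hQw₂⟩ := universal S.h2 hE (by omega) (nonsq S.h2)
  obtain ⟨hw₁E, hw₁b⟩ := mem_perpIn.1 hw₁
  obtain ⟨hw₂E, hw₂b⟩ := mem_perpIn.1 hw₂
  have h01 : Q w₁ ≠ 0 := by rw [hQw₁]; exact one_ne_zero
  have h02 : Q w₂ ≠ 0 := by rw [hQw₂]; exact nonsq_ne_zero S.h2
  have hfix : ∀ w ∈ D i, 𝔣 b w = 0 → ∀ (h0 : Q w ≠ 0), act (reflectionIso Q w h0) (act h a) = act h a := by
    intro w hwE hwb h0
    rw [reflectionIso_act, S.dec.polar_comp hwE, ← hb, polar_comm, hwb]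
    simp
  have hs1 : plusSign Q (reflectionIso Q w₁ h01) = -1 ∧ spinorSign Q S.h2 (reflectionIso Q w₁ h01) = 1 := by
    rw [plusSign_reflection Q S.h2, spinorSign_reflection Q S.h2, hQw₁]
    simp
  have hs2 : plusSign Q (reflectionIso Q w₂ h02) = 1 ∧ spinorSign Q S.h2 (reflectionIso Q w₂ h02) = -1 := by
    rw [plusSign_reflection Q S.h2, spinorSign_reflection Q S.h2, hQw₂, if_neg (nonsq_spec S.h2),
      if_neg (nonsq_spec S.h2)]
    simp
  have hst1 := S.refl_stab hw₁E h01
  have hst2 := S.refl_stab hw₂E h02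
  -- choose the correction
  have key : ∃ g : 𝕀, g ∈ Cfsg.Omega F (⇑Q) ∧ (g : GL ι F) ∈ decompositionStabilizer D ∧ act g a = act h a := by
    rcases Int.units_eq_one_or (plusSign Q h) with hp | hp <;>
      rcases Int.units_eq_one_or (spinorSign Q S.h2 h) with hs | hs
    · exact ⟨h, (mem_omega_iff Q S.hQ S.h2 h).2 ⟨hp, hs⟩, hh, rfl⟩
    · refine ⟨reflectionIso Q w₂ h02 * h, (mem_omega_iff Q S.hQ S.h2 _).2 ?_,
        (decompositionStabilizer D).mul_mem hst2 hh, ?_⟩
      · rw [map_mul, map_mul, hp, hs, hs2.1, hs2.2]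
        simp
      · rw [act_mul, hfix w₂ hw₂E hw₂b h02]
    · refine ⟨reflectionIso Q w₁ h01 * h, (mem_omega_iff Q S.hQ S.h2 _).2 ?_,
        (decompositionStabilizer D).mul_mem hst1 hh, ?_⟩
      · rw [map_mul, map_mul, hp, hs, hs1.1, hs1.2]
        simp
      · rw [act_mul, hfix w₁ hw₁E hw₁b h01]
    · refine ⟨reflectionIso Q w₁ h01 * (reflectionIso Q w₂ h02 * h), (mem_omega_iff Q S.hQ S.h2 _).2 ?_,
        (decompositionStabilizer D).mul_mem hst1 ((decompositionStabilizer D).mul_mem hst2 hh), ?_⟩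
      · rw [map_mul, map_mul, map_mul, map_mul, hp, hs, hs1.1, hs1.2, hs2.1, hs2.2]
        simp
      · rw [act_mul, act_mul, hfix w₂ hw₂E hw₂b h02, hfix w₁ hw₁E hw₁b h01]
  obtain ⟨g, hg1, hg2, hg3⟩ := key
  rw [← hg3]
  exact SS_act g (S.mem_M g hg1 hg2) ha

end Setup

end Cfsg.Agent.Lib.Classical.Decomp
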