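/-
Closure of the set `SS`: once `SS` contains a vector with two nonzero components, it contains every vector of norm `c`.
-/
import Mathlib
import Cfsg.Agent.Lib.Classical.Decomp.OddMoves

set_option autoImplicit false
set_option linter.unusedSectionVars false
set_option linter.unusedSimpArgs false
set_option linter.unusedVariables false

namespace Cfsg.Agent.Lib.Classical.Decomp

open Matrix QuadraticMap Module Cfsg.Geo
open Cfsg.Agent.Lib.Classical.Orth.Basic
open Cfsg.Agent.Lib.Classical.Orth.Spinor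
open Cfsg.Agent.Lib.Classical.Orth.CartanDieudonne

variable {ι : Type} [Fintype ι] [DecidableEq ι] {F : Type*} [Field F] [Fintype F]
variable {Q : QuadraticForm F (ι → F)}

set_option quotPrecheck false in
local notation "𝔣" => polar (⇑Q)
set_option quotPrecheck false in
local notation "𝕀" => ↥(Cfsg.isometryGroup F (⇑Q))

variable {M : Subgroup (GL ι F)} {c : F}
variable {t k : ℕ} {D : Fin t → Submodule F (ι → F)} {π : Fin t → (ι → F) →ₗ[F] (ι → F)}

namespace Setup

variable (S : Setup Q k D π M c)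
include S

/-- The formula for reflecting `a + ...` back: if `x` has polar `c` against `a`, `Q a = c`. -/
theorem refl_back {a x : ι → F} (ha : a ∈ SS Q M c) (hx : x ∈ SS Q M c) (h : 𝔣 a x = c) :
    x - a ∈ SS Q M c := by
  have ha0 : Q a ≠ 0 := ha.2.1
  have h1 := SS_refl ha hx ha0
  rw [reflectionIso_act, h, ha.1, inv_mul_cancel₀ S.hc, one_smul] at h1
  exact h1

/-- Step 1: two nonzero components give a vector with two components of norm `d`. -/
theorem step1 {d : F} (hd : 2 * d = c) {a : ι → F} (ha : a ∈ SS Q M c) {i j : Fin t} (hij : i ≠ j)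
    (hi : π i a ≠ 0) (hj : π j a ≠ 0) :
    ∃ u ∈ D i, ∃ v ∈ D j, Q u = d ∧ Q v = d ∧ u + v ∈ SS Q M c := by
  have hd0 : d ≠ 0 := by
    rintro rfl
    exact S.hc (by rw [← hd, mul_zero])
  obtain ⟨u, hu, hfu, hQu⟩ := exists_norm_pair S.h2 (S.dec.nd i) (S.hdim i) (S.dec.mem i a) hi (-d) d
    (Or.inl (neg_ne_zero.2 hd0))
  obtain ⟨v, hv, hfv, hQv⟩ := exists_norm_pair S.h2 (S.dec.nd j) (S.hdim j) (S.dec.mem j a) hj (-d) d
    (Or.inl (neg_ne_zero.2 hd0))
  have hu0 : Q u ≠ 0 := by rw [hQu]; exact hd0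
  have hv0 : Q v ≠ 0 := by rw [hQv]; exact hd0
  have hau : 𝔣 u a = -d := by
    rw [S.dec.polar_comp hu, polar_comm]
    exact hfu
  have hav : 𝔣 v a = -d := by
    rw [S.dec.polar_comp hv, polar_comm]
    exact hfv
  have huv : 𝔣 v u = 0 := S.dec.orth j i hij.symm v hv u hu
  have hmove := S.move_two ha hu hv hu0 hv0 (by rw [hQu, hQv, div_self hd0]; exact IsSquare.one)
  have hact : act (reflectionIso Q v hv0 * reflectionIso Q u hu0) a = a + u + v := by
    have h1 : act (reflectionIso Q u hu0) a = a + u := by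
      rw [reflectionIso_act, hau, hQu, mul_neg, inv_mul_cancel₀ hd0, neg_smul, one_smul, sub_neg_eq_add]
    rw [act_mul, h1, reflectionIso_act, polar_add_right, hav, huv, hQv, add_zero, mul_neg, inv_mul_cancel₀ hd0,
      neg_smul, one_smul, sub_neg_eq_add]
  rw [hact] at hmove
  refine ⟨u, hu, v, hv, hQu, hQv, ?_⟩
  have h2 := S.refl_back ha hmove (by
    rw [polar_add_right, polar_add_right, polar_self_eq, ha.1, polar_comm, hau, polar_comm, hav, ← hd]
    ring)
  have h3 : a + u + v - a = u + v := by abel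
  rwa [h3] at h2

/-- Moving a nonsingular component inside its member. -/
theorem lemT {a : ι → F} (ha : a ∈ SS Q M c) {i : Fin t} {y : ι → F} (hy : y ∈ D i) (hQy : Q y = Q (π i a))
    (h0 : Q y ≠ 0) : a - π i a + y ∈ SS Q M c := by
  set x := π i a with hx
  have hxE : x ∈ D i := S.dec.mem i a
  have hQ2 : ∀ w ∈ D i, 𝔣 w a = 𝔣 w x := fun w hw => S.dec.polar_comp hw a
  by_cases hw0 : Q (x - y) = 0
  · -- reflect in `x + y`, then in `y`
    have hxy : 𝔣 x y = 2 * Q y := by
      rw [Q_sub, ← hQy] at hw0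
      linear_combination -hw0
    have hne : Q (x + y) ≠ 0 := by
      rw [Q_add, ← hQy, hxy]
      have : Q y + Q y + 2 * Q y = 4 * Q y := by ring
      rw [this]
      refine mul_ne_zero ?_ h0
      have : (4 : F) = 2 * 2 := by norm_num
      rw [this]
      exact mul_ne_zero S.h2 S.h2
    have hmem : x + y ∈ D i := (D i).add_mem hxE hy
    have h1 : act (reflectionIso Q (x + y) hne) a = a - x - y := by
      rw [reflectionIso_act, hQ2 _ hmem, polar_add_left, polar_self_eq, polar_comm (⇑Q) y x, hxy, Q_add, hxy, ← hQy]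
      have hne4 : Q y + Q y + 2 * Q y ≠ 0 := by
        rw [Q_add, hxy, ← hQy] at hne
        exact hne
      have h5 : 2 * Q y + 2 * Q y = Q y + Q y + 2 * Q y := by ring
      rw [h5, inv_mul_cancel₀ hne4, one_smul]
      abel
    have hst := S.refl_stab hmem hne
    have hmv := S.move _ hst ha i (by
      rw [h1, LinearMap.map_sub, LinearMap.map_sub, ← hx, S.dec.idem i x hxE, S.dec.idem i y hy, sub_self, zero_sub,
        QuadraticMap.map_neg]
      exact h0)
    rw [h1] at hmv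
    have h7 : act (reflectionIso Q y h0) (a - x - y) = a - x + y := by
      rw [reflectionIso_act, S.dec.polar_comp hy, LinearMap.map_sub, LinearMap.map_sub, ← hx, S.dec.idem i x hxE,
        S.dec.idem i y hy, sub_self, zero_sub, polar_neg_right, polar_self_eq]
      have : (Q y)⁻¹ * -(2 * Q y) = -2 := by
        field_simp
      rw [this, neg_smul, two_smul]
      abel
    have hmv2 := S.move _ (S.refl_stab hy h0) hmv i (by
      rw [h7, LinearMap.map_add, LinearMap.map_sub, ← hx, S.dec.idem i x hxE, S.dec.idem i y hy, sub_self, zero_add]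
      exact h0)
    rwa [h7] at hmv2
  · have hmem : x - y ∈ D i := (D i).sub_mem hxE hy
    have h1 : act (reflectionIso Q (x - y) hw0) a = a - x + y := by
      rw [reflectionIso_act, hQ2 _ hmem, polar_sub_left, polar_self_eq]
      have : 2 * Q x - 𝔣 y x = Q (x - y) := by
        rw [Q_sub, ← hQy, polar_comm (⇑Q) y x, hQy]
        ring
      rw [this, inv_mul_cancel₀ hw0, one_smul]
      abel
    have hst := S.refl_stab hmem hw0
    have hmv := S.move _ hst ha i (by
      rw [h1, LinearMap.map_add, LinearMap.map_sub, ← hx, S.dec.idem i x hxE, S.dec.idem i y hy, sub_self, zero_add]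
      exact h0)
    rwa [h1] at hmv

/-- Half pairs: all pairs with norms `d`. -/
def Half (Q : QuadraticForm F (ι → F)) (D : Fin t → Submodule F (ι → F)) (M : Subgroup (GL ι F)) (c d : F)
    (i j : Fin t) : Prop :=
  ∀ u ∈ D i, ∀ v ∈ D j, Q u = d → Q v = d → u + v ∈ SS Q M c

theorem half_of_one {d : F} (hd0 : d ≠ 0) {i j : Fin t} (hij : i ≠ j) {u v : ι → F} (hu : u ∈ D i) (hv : v ∈ D j)
    (hQu : Q u = d) (hQv : Q v = d) (h : u + v ∈ SS Q M c) : Half Q D M c d i j := by
  intro u' hu' v' hv' hQu' hQv'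
  have h1 : π i (u + v) = u := by
    rw [LinearMap.map_add, S.dec.idem i u hu, S.dec.zero i j v hij hv, add_zero]
  have h3 := S.lemT h (y := u') hu' (by rw [h1, hQu, hQu']) (by rw [hQu']; exact hd0)
  rw [h1] at h3
  have h4 : u + v - u + u' = u' + v := by abel
  rw [h4] at h3
  have h5 : π j (u' + v) = v := by
    rw [LinearMap.map_add, S.dec.idem j v hv, S.dec.zero j i u' hij.symm hu', zero_add]
  have h6 := S.lemT h3 (y := v') hv' (by rw [h5, hQv, hQv']) (by rw [hQv']; exact hd0)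
  rw [h5] at h6
  have h7 : u' + v - v + v' = u' + v' := by abel
  rwa [h7] at h6

/-- Two nonsingular components with the right norm sum. -/
theorem step2 {d : F} (hd : 2 * d = c) {i j : Fin t} (hij : i ≠ j) (hh : Half Q D M c d i j)
    {x₁ x₂ : ι → F} (h₁ : x₁ ∈ D i) (h₂ : x₂ ∈ D j) (h₁0 : Q x₁ ≠ 0) (h₂0 : Q x₂ ≠ 0)
    (hsum : Q x₁ + Q x₂ = c) : x₁ + x₂ ∈ SS Q M c := by
  have hd0 : d ≠ 0 := by
    rintro rfl
    exact S.hc (by rw [← hd, mul_zero])
  have hne : ∀ {x : ι → F}, Q x ≠ 0 → x ≠ 0 := by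
    rintro x h rfl
    exact h (QuadraticMap.map_zero _)
  obtain ⟨u, hu, hfu, hQu⟩ := exists_norm_pair S.h2 (S.dec.nd i) (S.hdim i) h₁ (hne h₁0) (-Q x₁) d (Or.inr h₁0)
  obtain ⟨v, hv, hfv, hQv⟩ := exists_norm_pair S.h2 (S.dec.nd j) (S.hdim j) h₂ (hne h₂0) (-Q x₂) d (Or.inr h₂0)
  have ha := hh u hu v hv hQu hQv
  have hx₁v : 𝔣 x₁ v = 0 := S.dec.orth i j hij x₁ h₁ v hv
  have hx₂u : 𝔣 x₂ u = 0 := S.dec.orth j i hij.symm x₂ h₂ u hu
  have hx₂x₁ : 𝔣 x₂ x₁ = 0 := S.dec.orth j i hij.symm x₂ h₂ x₁ h₁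
  have hpi1 : π i (u + v + x₁) = u + x₁ := by
    rw [LinearMap.map_add, LinearMap.map_add, S.dec.idem i u hu, S.dec.zero i j v hij hv, S.dec.idem i x₁ h₁, add_zero]
  have hact1 : act (reflectionIso Q x₁ h₁0) (u + v) = u + v + x₁ := by
    rw [reflectionIso_act, polar_add_right, hfu, hx₁v, add_zero, mul_neg, inv_mul_cancel₀ h₁0, neg_smul,
      one_smul, sub_neg_eq_add]
  have hm1 := S.move _ (S.refl_stab h₁ h₁0) ha i (by
    rw [hact1, hpi1, Q_add, hQu, polar_comm, hfu]
    rw [show d + Q x₁ + -Q x₁ = d by ring]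
    exact hd0)
  rw [hact1] at hm1
  have hpi2 : π j (u + v + x₁ + x₂) = v + x₂ := by
    rw [LinearMap.map_add, LinearMap.map_add, LinearMap.map_add, S.dec.idem j v hv, S.dec.zero j i u hij.symm hu,
      S.dec.zero j i x₁ hij.symm h₁, S.dec.idem j x₂ h₂]
    abel
  have hact2 : act (reflectionIso Q x₂ h₂0) (u + v + x₁) = u + v + x₁ + x₂ := by
    rw [reflectionIso_act, polar_add_right, polar_add_right, hfv, hx₂u, hx₂x₁, zero_add, add_zero, mul_neg,
      inv_mul_cancel₀ h₂0, neg_smul, one_smul, sub_neg_eq_add]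
  have hm2 := S.move _ (S.refl_stab h₂ h₂0) hm1 j (by
    rw [hact2, hpi2, Q_add, hQv, polar_comm, hfv]
    rw [show d + Q x₂ + -Q x₂ = d by ring]
    exact hd0)
  rw [hact2] at hm2
  have h5 := S.refl_back ha hm2 (by
    rw [polar_add_right, polar_add_right, polar_self_eq, ha.1, polar_add_left, polar_add_left, polar_comm (⇑Q) u x₁,
      hfu, polar_comm (⇑Q) v x₁, hx₁v, polar_comm (⇑Q) u x₂, hx₂u, polar_comm (⇑Q) v x₂, hfv]
    rw [← hsum]
    ring)
  have h6 : u + v + x₁ + x₂ - (u + v) = x₁ + x₂ := by abel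
  rwa [h6] at h5

/-- The formula for reflecting forward. -/
theorem refl_add {a x : ι → F} (ha : a ∈ SS Q M c) (hx : x ∈ SS Q M c) (h : 𝔣 a x = -c) :
    x + a ∈ SS Q M c := by
  have ha0 : Q a ≠ 0 := ha.2.1
  have h1 := SS_refl ha hx ha0
  rw [reflectionIso_act, h, ha.1, mul_neg, inv_mul_cancel₀ S.hc, neg_smul, one_smul, sub_neg_eq_add] at h1
  exact h1

omit S in
/-- A singular vector has a perpendicular vector of any norm in dimension at least four. -/
theorem exists_perp_sing (h2 : (2 : F) ≠ 0) {E : Submodule F (ι → F)} (hE : IsNondegenerateOn (polar (⇑Q)) E)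
    (hdim : 4 ≤ finrank F E) {x : ι → F} (hxE : x ∈ E) (hx : x ≠ 0) (hQx : Q x = 0) (s : F) :
    ∃ b ∈ E, 𝔣 x b = 0 ∧ Q b = s := by
  obtain ⟨p, hp, hxp, hQp⟩ := exists_norm_pair h2 hE (by omega) hxE hx 1 0 (Or.inl one_ne_zero)
  have hQa : Q (x + p) = 1 := by
    rw [Q_add, hQx, hQp, hxp]
    ring
  have hQa' : Q (x - p) = -1 := by
    rw [Q_sub, hQx, hQp, hxp]
    ring
  have h1 : x + p ∈ E := E.add_mem hxE hp
  have h3 : x - p ∈ E := E.sub_mem hxE hp
  have h10 : Q (x + p) ≠ 0 := by rw [hQa]; exact one_ne_zero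
  have h30 : Q (x - p) ≠ 0 := by rw [hQa']; simp
  have hperp : 𝔣 (x + p) (x - p) = 0 := by
    rw [polar_add_left, polar_sub_right, polar_sub_right, polar_self_eq, polar_self_eq, hQx, hQp, hxp,
      polar_comm (⇑Q) p x, hxp]
    ring
  have hE1 := nondeg_perpIn hE h1 h2 h10
  have hd1 := finrank_perpIn_add h1 h2 h10
  have hm : x - p ∈ perpIn Q E (x + p) := mem_perpIn.2 ⟨h3, hperp⟩
  have hE2 := nondeg_perpIn hE1 hm h2 h30
  have hd2 := finrank_perpIn_add hm h2 h30
  obtain ⟨b, hb, hQb⟩ := universal h2 hE2 (by omega) s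
  obtain ⟨hb1, hb2⟩ := mem_perpIn.1 hb
  obtain ⟨hb3, hb4⟩ := mem_perpIn.1 hb1
  refine ⟨b, hb3, ?_, hQb⟩
  rw [polar_add_left] at hb4
  rw [polar_sub_left] at hb2
  have : 2 * 𝔣 x b = 0 := by linear_combination hb4 + hb2
  exact (mul_eq_zero.1 this).resolve_left h2

/-- Two components, one of them singular. -/
theorem sing_case {d : F} (hd : 2 * d = c) {i j : Fin t} (hij : i ≠ j) (hh : Half Q D M c d i j)
    (hex : ¬ (Fintype.card F = 3 ∧ k = 3))
    {x₁ x₂ : ι → F} (h₁ : x₁ ∈ D i) (h₂ : x₂ ∈ D j) (hx₁ : x₁ ≠ 0) (hQ₁ : Q x₁ = 0) (hQ₂ : Q x₂ = c) :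
    x₁ + x₂ ∈ SS Q M c := by
  classical
  have h2 := S.h2
  have hc := S.hc
  have hx₂ : x₂ ≠ 0 := by
    rintro rfl
    exact hc (by rw [← hQ₂, QuadraticMap.map_zero])
  have h2c : 2 * c ≠ 0 := mul_ne_zero h2 hc
  obtain ⟨e, b₁, hb₁, hf₁, hQb₁, he1, he2⟩ : ∃ e : F, ∃ b₁ ∈ D i, 𝔣 x₁ b₁ = e ∧ Q b₁ = -c ∧ e ≠ -c ∧ e ≠ -(2 * c) := by
    by_cases hq : ∃ e : F, e ≠ 0 ∧ e ≠ -c ∧ e ≠ -(2 * c)
    · obtain ⟨e, h0, h3, h4⟩ := hq
      obtain ⟨b₁, hb₁, hf, hQb⟩ := exists_norm_pair S.h2 (S.dec.nd i) (S.hdim i) h₁ hx₁ e (-c) (Or.inl h0)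
      exact ⟨e, b₁, hb₁, hf, hQb, h3, h4⟩
    · push Not at hq
      -- the field has at most three elements
      have hcard : Fintype.card F ≤ 3 := by
        have hsub : (Finset.univ : Finset F) ⊆ {0, -c, -(2 * c)} := by
          intro e _
          by_cases h0 : e = 0
          · simp [h0]
          · by_cases h3 : e = -c
            · simp [h3]
            · have := hq e h0 h3
              simp [this]
        have := Finset.card_le_card hsub
        rw [Finset.card_univ] at this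
        exact this.trans Finset.card_le_three
      have hcard3 : Fintype.card F = 3 := by
        have hodd : Fintype.card F % 2 = 1 := by
          have hne : ringChar F ≠ 2 := by
            intro h
            apply h2
            have : CharP F 2 := ringChar.of_eq h
            exact CharTwo.two_eq_zero
          exact FiniteField.odd_card_of_char_ne_two hne
        have h1 := Fintype.one_lt_card (α := F)
        omega
      have hk : k ≠ 3 := fun h => hex ⟨hcard3, h⟩
      have hk4 : 4 ≤ k := by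
        have := S.dim3
        omega
      have hE : 4 ≤ finrank F (D i) := by rw [S.dec.dim]; exact hk4
      obtain ⟨b₁, hb₁, hf, hQb⟩ := exists_perp_sing h2 (S.dec.nd i) hE h₁ hx₁ hQ₁ (-c)
      refine ⟨0, b₁, hb₁, hf, hQb, ?_, ?_⟩
      · intro h
        exact hc (by linear_combination h)
      · intro h
        exact h2c (by linear_combination h)
  have hQ₂0 : Q x₂ ≠ 0 := by rw [hQ₂]; exact hc
  obtain ⟨b₂, hb₂, hf₂, hQb₂⟩ := exists_norm_pair S.h2 (S.dec.nd j) (S.hdim j) h₂ hx₂ (c - e) (2 * c) (Or.inr hQ₂0)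
  have hb₁0 : Q b₁ ≠ 0 := by rw [hQb₁]; exact neg_ne_zero.2 hc
  have hb₂0 : Q b₂ ≠ 0 := by rw [hQb₂]; exact h2c
  have hb := S.step2 hd hij hh hb₁ hb₂ hb₁0 hb₂0 (by rw [hQb₁, hQb₂]; ring)
  have hz₁ : Q (x₁ - b₁) = -c - e := by
    rw [Q_sub, hQ₁, hQb₁, hf₁]
    ring
  have hz₂ : Q (x₂ - b₂) = 2 * c + e := by
    rw [Q_sub, hQ₂, hQb₂, hf₂]
    ring
  have hz := S.step2 hd hij hh ((D i).sub_mem h₁ hb₁) ((D j).sub_mem h₂ hb₂)
    (by
      rw [hz₁]
      intro h
      exact he1 (by linear_combination -h))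
    (by
      rw [hz₂]
      intro h
      exact he2 (by linear_combination h))
    (by rw [hz₁, hz₂]; ring)
  have horth : ∀ u ∈ D i, ∀ v ∈ D j, 𝔣 u v = 0 := S.dec.orth i j hij
  have horth' : ∀ v ∈ D j, ∀ u ∈ D i, 𝔣 v u = 0 := S.dec.orth j i hij.symm
  have hres := S.refl_add hb hz (by
    rw [polar_add_left, polar_add_right, polar_add_right, polar_sub_right, polar_sub_right, polar_sub_right,
      polar_sub_right, polar_self_eq, polar_self_eq, hQb₁, hQb₂, polar_comm (⇑Q) b₁ x₁, hf₁,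
      polar_comm (⇑Q) b₂ x₂, hf₂, horth b₁ hb₁ x₂ h₂, horth b₁ hb₁ b₂ hb₂, horth' b₂ hb₂ x₁ h₁,
      horth' b₂ hb₂ b₁ hb₁]
    ring)
  have h5 : x₁ - b₁ + (x₂ - b₂) + (b₁ + b₂) = x₁ + x₂ := by abel
  rwa [h5] at hres

/-- Vectors with at most two nonzero components. -/
theorem two_all {d : F} (hd : 2 * d = c) {i j : Fin t} (hij : i ≠ j) (hh : Half Q D M c d i j)
    (hh' : Half Q D M c d j i) (hex : ¬ (Fintype.card F = 3 ∧ k = 3)) {x : ι → F} (hx : Q x = c)
    (hl : ∀ l, l ≠ i → l ≠ j → π l x = 0) : x ∈ SS Q M c := by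
  have hdec := S.dec.eq_two hij hl
  set x₁ := π i x with hx₁
  set x₂ := π j x with hx₂
  have h₁ : x₁ ∈ D i := S.dec.mem i x
  have h₂ : x₂ ∈ D j := S.dec.mem j x
  have hsum : Q x₁ + Q x₂ = c := by
    rw [← hx, hdec, Q_add_of_perp (S.dec.orth i j hij x₁ h₁ x₂ h₂)]
  by_cases h10 : x₁ = 0
  · have : x = x₂ := by rw [hdec, h10, zero_add]
    rw [this]
    apply S.mem_SS_of_mem h₂
    rw [← hsum, h10, QuadraticMap.map_zero, zero_add]
  by_cases h20 : x₂ = 0
  · have : x = x₁ := by rw [hdec, h20, add_zero]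
    rw [this]
    apply S.mem_SS_of_mem h₁
    rw [← hsum, h20, QuadraticMap.map_zero, add_zero]
  rw [hdec]
  by_cases hq1 : Q x₁ = 0
  · exact S.sing_case hd hij hh hex h₁ h₂ h10 hq1 (by rw [← hsum, hq1, zero_add])
  by_cases hq2 : Q x₂ = 0
  · rw [add_comm]
    exact S.sing_case hd hij.symm hh' hex h₂ h₁ h20 hq2 (by rw [← hsum, hq2, add_zero])
  exact S.step2 hd hij hh h₁ h₂ hq1 hq2 hsum

/-- All vectors of norm `c`, when all half pairs are available. -/
theorem all_mem {d : F} (hd : 2 * d = c) (hh : ∀ i j, i ≠ j → Half Q D M c d i j)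
    (hex : ¬ (Fintype.card F = 3 ∧ k = 3)) (x : ι → F) (hx : Q x = c) : x ∈ SS Q M c := by
  classical
  have hc := S.hc
  induction hn : (Finset.univ.filter (fun i => π i x ≠ 0)).card using Nat.strong_induction_on generalizing x with
  | _ n ih =>
    set s := Finset.univ.filter (fun i => π i x ≠ 0) with hs
    have hmem : ∀ i, i ∈ s ↔ π i x ≠ 0 := fun i => by simp [hs]
    -- a nonsingular component
    obtain ⟨i₂, hi₂⟩ : ∃ i, Q (π i x) ≠ 0 := by
      by_contra hcon
      push Not at hcon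
      apply hc
      rw [← hx, S.dec.Q_sum x]
      exact Finset.sum_eq_zero (fun i _ => hcon i)
    have hi₂s : i₂ ∈ s := by
      rw [hmem]
      intro h
      exact hi₂ (by rw [h, QuadraticMap.map_zero])
    by_cases hone : ∀ l, l ≠ i₂ → π l x = 0
    · exact S.mem_SS_of_mem (S.dec.mem_of_zero hone) hx
    push Not at hone
    obtain ⟨i₁, hi₁, hi₁0⟩ := hone
    by_cases hthree : ∀ l, l ≠ i₁ → l ≠ i₂ → π l x = 0
    · exact S.two_all hd hi₁ (hh _ _ hi₁) (hh _ _ hi₁.symm) hex hx hthree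
    -- at least three components: reduce
    set x₁ := π i₁ x with hx₁
    set x₂ := π i₂ x with hx₂
    have h₁ : x₁ ∈ D i₁ := S.dec.mem _ x
    have h₂ : x₂ ∈ D i₂ := S.dec.mem _ x
    have hx₂0 : x₂ ≠ 0 := (hmem i₂).1 hi₂s
    obtain ⟨y, hy, hfy, hQy⟩ := exists_norm_pair S.h2 (S.dec.nd i₂) (S.hdim i₂) h₂ hx₂0 (c - 2 * Q x₁) (c - Q x₁)
      (Or.inr hi₂)
    have horth : 𝔣 x₁ y = 0 := S.dec.orth i₁ i₂ hi₁ x₁ h₁ y hy
    have hQb : Q (x₁ + y) = c := by
      rw [Q_add_of_perp horth, hQy]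
      ring
    have hpi : ∀ l, l ≠ i₁ → l ≠ i₂ → π l (x₁ + y) = 0 := by
      intro l h1 h3
      rw [LinearMap.map_add, S.dec.zero l i₁ x₁ h1 h₁, S.dec.zero l i₂ y h3 hy, add_zero]
    have hb : x₁ + y ∈ SS Q M c := S.two_all hd hi₁ (hh _ _ hi₁) (hh _ _ hi₁.symm) hex hQb hpi
    have hfb : 𝔣 (x₁ + y) x = c := by
      rw [polar_add_left, S.dec.polar_comp h₁, S.dec.polar_comp hy, ← hx₁, ← hx₂, polar_self_eq,
        polar_comm (⇑Q) y x₂, hfy]
      ring
    have hQz : Q (x - (x₁ + y)) = c := by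
      rw [Q_sub, hx, hQb, polar_comm, hfb]
      ring
    have hsupp : (Finset.univ.filter (fun i => π i (x - (x₁ + y)) ≠ 0)).card < n := by
      rw [← hn]
      apply Finset.card_lt_card
      rw [Finset.ssubset_iff_of_subset]
      · refine ⟨i₁, (hmem i₁).2 hi₁0, ?_⟩
        simp only [Finset.mem_filter, Finset.mem_univ, true_and, not_not]
        rw [LinearMap.map_sub, LinearMap.map_add, S.dec.idem i₁ x₁ h₁, S.dec.zero i₁ i₂ y hi₁ hy, add_zero, ← hx₁,
          sub_self]
      · intro l hl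
        simp only [Finset.mem_filter, Finset.mem_univ, true_and] at hl
        rw [hmem]
        by_cases h3 : l = i₂
        · subst h3
          exact hx₂0
        · by_cases h4 : l = i₁
          · subst h4
            exact hi₁0
          · rw [LinearMap.map_sub, hpi l h4 h3, sub_zero] at hl
            exact hl
    have hz := ih _ hsupp (x - (x₁ + y)) hQz rfl
    have hres := S.refl_add hb hz (by
      rw [polar_sub_right, hfb, polar_self_eq, hQb]
      ring)
    have h5 : x - (x₁ + y) + (x₁ + y) = x := by abel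
    rwa [h5] at hres

end Setup

end Cfsg.Agent.Lib.Classical.Decomp
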