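/-
Maximality of the stabiliser of an orthogonal decomposition into isometric members of dimension at least three, in `Ω` of a quadratic
form in odd dimension and odd characteristic.
-/
import Mathlib
import Cfsg.Agent.Lib.Classical.Decomp.OddClosure

set_option autoImplicit false
set_option linter.unusedSectionVars false
set_option linter.unusedSimpArgs false
set_option linter.unusedVariables false

namespace Cfsg.Agent.Lib.Classical.Decomp

open Matrix QuadraticMap Module Cfsg.Geo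
open Cfsg.Agent.Lib.Classical.Orth.Basic
open Cfsg.Agent.Lib.Classical.Orth.Spinor
open Cfsg.Agent.Lib.Classical.Orth.CartanDieudonne
open Cfsg.Agent.Lib.Classical.Orth.ReflClass

variable {ι : Type} [Fintype ι] [DecidableEq ι] {F : Type*} [Field F]
variable {Q : QuadraticForm F (ι → F)}

set_option quotPrecheck false in
local notation "𝔣" => polar (⇑Q)
set_option quotPrecheck false in
local notation "𝕀" => ↥(Cfsg.isometryGroup F (⇑Q))

variable {t k : ℕ} {D : Fin t → Submodule F (ι → F)} {π : Fin t → (ι → F) →ₗ[F] (ι → F)}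

/-- Isometric members can be permuted by an isometry of the whole space. -/
theorem exists_perm_iso (dec : Dec Q k D π) (hQ : (polarBilin Q).Nondegenerate)
    (iso : ∀ i j, AreIsometricFor (⇑Q) (D i) (D j)) (σ : Equiv.Perm (Fin t)) :
    ∃ h : 𝕀, (∀ i x, x ∈ D i → act h x ∈ D (σ i)) ∧ (∀ i u, u ∈ D (σ i) → ∃ x ∈ D i, act h x = u) := by
  classical
  choose e he using fun i => iso i (σ i)
  let p : ∀ i, (ι → F) →ₗ[F] D i := fun i => (π i).codRestrict (D i) (dec.mem i)
  have hp : ∀ i x, ((p i x : D i) : ι → F) = π i x := fun i x => rfl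
  let T : (ι → F) →ₗ[F] (ι → F) := ∑ i, (D (σ i)).subtype ∘ₗ (e i).toLinearMap ∘ₗ p i
  have hT : ∀ x, T x = ∑ i, ((e i (p i x) : D (σ i)) : ι → F) := by
    intro x
    simp [T, LinearMap.sum_apply]
  have hπ : ∀ j x, π (σ j) (T x) = ((e j (p j x) : D (σ j)) : ι → F) := by
    intro j x
    rw [hT, map_sum, Finset.sum_eq_single j]
    · exact dec.idem _ _ (Subtype.property _)
    · intro i _ hij
      exact dec.zero _ _ _ (fun h => hij (σ.injective h).symm) (Subtype.property _)
    · simp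
  have hQT : ∀ x, Q (T x) = Q x := by
    intro x
    rw [dec.Q_sum (T x), dec.Q_sum x, ← Equiv.sum_comp σ]
    apply Finset.sum_congr rfl
    intro j _
    rw [hπ, he j]
    rfl
  have hpol : ∀ x y, 𝔣 (T x) (T y) = 𝔣 x y := by
    intro x y
    simp only [polar]
    rw [← map_add, hQT, hQT, hQT]
  have hinj : Function.Injective T := by
    rw [injective_iff_map_eq_zero]
    intro x hx
    apply eq_zero_of_polar hQ
    intro y
    rw [← hpol, hx, polar_zero_left]
  let E : (ι → F) ≃ₗ[F] (ι → F) := LinearEquiv.ofInjectiveEndo T hinj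
  have hE : ∀ x, E x = T x := fun x => rfl
  let g : GL ι F := Cfsg.Agent.Lib.Classical.Geo.Basic.glOfEquiv E
  have hg : ∀ x, (g : Matrix ι ι F) *ᵥ x = T x := fun x => by
    rw [Cfsg.Agent.Lib.Classical.Geo.Basic.glOfEquiv_mulVec, hE]
  have hmem : g ∈ Cfsg.isometryGroup F (⇑Q) := (mem_isometryGroup_iff Q g).2 (fun x => by rw [hg, hQT])
  have hact : ∀ x, act (⟨g, hmem⟩ : 𝕀) x = T x := hg
  have hTmem : ∀ i x (hx : x ∈ D i), T x = ((e i ⟨x, hx⟩ : D (σ i)) : ι → F) := by
    intro i x hx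
    rw [hT, Finset.sum_eq_single i]
    · congr 2
      apply Subtype.ext
      rw [hp]
      exact dec.idem i x hx
    · intro l _ hl
      have : p l x = 0 := by
        apply Subtype.ext
        rw [hp]
        exact dec.zero l i x hl hx
      rw [this, map_zero]
      rfl
    · simp
  refine ⟨⟨g, hmem⟩, ?_, ?_⟩
  · intro i x hx
    rw [hact, hTmem i x hx]
    exact Subtype.property _
  · intro i u hu
    refine ⟨((e i).symm ⟨u, hu⟩ : D i), Subtype.property _, ?_⟩
    rw [hact, hTmem i _ (Subtype.property _)]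
    simp

variable {M : Subgroup (GL ι F)} {c : F} [Fintype F]

namespace Setup

variable (S : Setup Q k D π M c)
include S

theorem half_perm {d : F} (hd0 : d ≠ 0) (iso : ∀ i j, AreIsometricFor (⇑Q) (D i) (D j))
    {i j : Fin t} (hij : i ≠ j) (hh : Half Q D M c d i j) (σ : Equiv.Perm (Fin t)) :
    Half Q D M c d (σ i) (σ j) := by
  intro u hu v hv hQu hQv
  obtain ⟨h, h1, h3⟩ := exists_perm_iso S.dec S.hQ iso σ
  obtain ⟨x, hx, hxu⟩ := h3 i u hu
  obtain ⟨y, hy, hyv⟩ := h3 j v hv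
  have hQx : Q x = d := by rw [← hQu, ← hxu, Q_act]
  have hQy : Q y = d := by rw [← hQv, ← hyv, Q_act]
  have hm := hh x hx y hy hQx hQy
  have hst : ((h : 𝕀) : GL ι F) ∈ decompositionStabilizer D := mem_stab_of_perm S.dec _ σ h1
  have hact : act h (x + y) = u + v := by rw [act_add, hxu, hyv]
  have hne : σ i ≠ σ j := fun h => hij (σ.injective h)
  have := S.move h hst hm (σ i) (by
    rw [hact, LinearMap.map_add, S.dec.idem _ u hu, S.dec.zero _ _ v hne hv, add_zero, hQu]
    exact hd0)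
  rwa [hact] at this

theorem half_all {d : F} (hd0 : d ≠ 0) (iso : ∀ i j, AreIsometricFor (⇑Q) (D i) (D j))
    {i₀ j₀ : Fin t} (hij : i₀ ≠ j₀) (hh : Half Q D M c d i₀ j₀) (i j : Fin t) (h : i ≠ j) :
    Half Q D M c d i j := by
  classical
  set s₁ : Equiv.Perm (Fin t) := Equiv.swap i₀ i with hs₁
  set j' := s₁ j₀ with hj'
  have hi' : i ≠ j' := by
    intro hc
    have h1 : s₁ i₀ = i := Equiv.swap_apply_left _ _
    have h3 : s₁ i₀ = s₁ j₀ := by rw [h1, ← hj', hc]
    exact hij (s₁.injective h3)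
  have := S.half_perm hd0 iso hij hh ((Equiv.swap j' j) * s₁)
  have h5 : ((Equiv.swap j' j) * s₁) i₀ = i := by
    rw [Equiv.Perm.mul_apply, show s₁ i₀ = i from Equiv.swap_apply_left _ _,
      Equiv.swap_apply_of_ne_of_ne hi' h]
  have h6 : ((Equiv.swap j' j) * s₁) j₀ = j := by
    rw [Equiv.Perm.mul_apply, ← hj', Equiv.swap_apply_left]
  rwa [h5, h6] at this

end Setup

omit [Fintype F] in
/-- Reduction along a nonsingular vector. -/
theorem le_of_perp {E W : Submodule F (ι → F)} {a : ι → F} (h2 : (2 : F) ≠ 0) (haE : a ∈ E) (ha : Q a ≠ 0)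
    (haW : a ∈ W) (h : perpIn Q E a ≤ W) : E ≤ W := by
  intro y hy
  have h2a : 𝔣 a a ≠ 0 := by
    rw [polar_self_eq]
    exact mul_ne_zero h2 ha
  have hm : y - (𝔣 a y * (𝔣 a a)⁻¹) • a ∈ perpIn Q E a := mem_perpIn.2 ⟨E.sub_mem hy (E.smul_mem _ haE), by
    rw [polar_sub_right, polar_smul_right', mul_assoc, inv_mul_cancel₀ h2a, mul_one, sub_self]⟩
  have h3 := W.add_mem (h hm) (W.smul_mem (𝔣 a y * (𝔣 a a)⁻¹) haW)
  simpa using h3

/-- The vectors of norm `c` not orthogonal to a given vector of norm `c` span, in dimension at least four. -/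
theorem le_of_good_large (h2 : (2 : F) ≠ 0) {E W : Submodule F (ι → F)}
    (hE : IsNondegenerateOn (polar (⇑Q)) E) (hdim : 4 ≤ finrank F E) {a : ι → F} (haE : a ∈ E) (hc : c ≠ 0)
    (hQa : Q a = c) (hW : ∀ b ∈ E, Q b = c → 𝔣 a b ≠ 0 → b ∈ W) : E ≤ W := by
  have ha0 : Q a ≠ 0 := by rw [hQa]; exact hc
  have h2c : 2 * c ≠ 0 := mul_ne_zero h2 hc
  have haW : a ∈ W := hW a haE hQa (by rw [polar_self_eq, hQa]; exact h2c)
  have hE1 := nondeg_perpIn hE haE h2 ha0
  have hd1 := finrank_perpIn_add haE h2 ha0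
  apply le_of_perp h2 haE ha0 haW
  have hsing : ∀ w ∈ perpIn Q E a, Q w = 0 → w ∈ W := by
    intro w hw hQw
    obtain ⟨hwE, hwa⟩ := mem_perpIn.1 hw
    have h1 : a + w ∈ W := hW _ (E.add_mem haE hwE) (by rw [Q_add_of_perp hwa, hQw, hQa, add_zero]) (by
      rw [polar_add_right, polar_self_eq, hwa, hQa, add_zero]
      exact h2c)
    have := W.sub_mem h1 haW
    simpa using this
  intro w hw
  by_cases hQw : Q w = 0
  · exact hsing w hw hQw
  · have hE2 := nondeg_perpIn hE1 hw h2 hQw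
    have hd2 := finrank_perpIn_add hw h2 hQw
    obtain ⟨z, hz, hQz⟩ := universal h2 hE2 (by omega) (-Q w)
    obtain ⟨hz1, hwz⟩ := mem_perpIn.1 hz
    have h3 : w + z ∈ W := hsing _ ((perpIn Q E a).add_mem hw hz1) (by rw [Q_add_of_perp hwz, hQz]; ring)
    have h4 : w - z ∈ W := hsing _ ((perpIn Q E a).sub_mem hw hz1) (by
      rw [Q_sub, hwz, hQz]
      ring)
    have h5 := W.add_mem h3 h4
    have h6 : w + z + (w - z) = (2 : F) • w := by
      rw [two_smul]
      abel
    rw [h6] at h5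
    exact (W.smul_mem_iff h2).1 h5

/-- The vectors of norm `c` not orthogonal to a given vector of norm `c` span, in dimension three, when
`F` has more than three elements. -/
theorem le_of_good_three (h2 : (2 : F) ≠ 0) {E W : Submodule F (ι → F)}
    (hE : IsNondegenerateOn (polar (⇑Q)) E) (hdim : finrank F E = 3) (hcard : Fintype.card F ≠ 3)
    {a : ι → F} (haE : a ∈ E) (hc : c ≠ 0) (hQa : Q a = c) (hW : ∀ b ∈ E, Q b = c → 𝔣 a b ≠ 0 → b ∈ W) :
    E ≤ W := by
  classical
  have ha0 : Q a ≠ 0 := by rw [hQa]; exact hc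
  have h2c : 2 * c ≠ 0 := mul_ne_zero h2 hc
  have haW : a ∈ W := hW a haE hQa (by rw [polar_self_eq, hQa]; exact h2c)
  have hE1 := nondeg_perpIn hE haE h2 ha0
  have hd1 := finrank_perpIn_add haE h2 ha0
  -- a scalar other than `0`, `1`, `-1`
  obtain ⟨l, hl0, hl1, hl2⟩ : ∃ l : F, l ≠ 0 ∧ l ≠ 1 ∧ l ≠ -1 := by
    by_contra hcon
    push Not at hcon
    have hsub : (Finset.univ : Finset F) ⊆ {0, 1, -1} := by
      intro e _
      by_cases h0 : e = 0
      · simp [h0]
      · by_cases h3 : e = 1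
        · simp [h3]
        · have := hcon e h0 h3
          simp [this]
    have hle : Fintype.card F ≤ 3 := by
      have := Finset.card_le_card hsub
      rw [Finset.card_univ] at this
      exact this.trans Finset.card_le_three
    have hne2 : Fintype.card F ≠ 2 := by
      intro h
      apply h2
      have : (2 : F) = ((Fintype.card F : ℕ) : F) := by rw [h]; norm_num
      rw [this, Nat.cast_card_eq_zero]
    have h1 := Fintype.one_lt_card (α := F)
    omega
  have hsq : 1 - l ^ 2 ≠ 0 := by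
    intro h
    have : (1 - l) * (1 + l) = 0 := by linear_combination h
    rcases mul_eq_zero.1 this with h3 | h3
    · exact hl1 (by linear_combination -h3)
    · exact hl2 (by linear_combination h3)
  set τ := c * (1 - l ^ 2) with hτ
  have hτ0 : τ ≠ 0 := mul_ne_zero hc hsq
  -- the vectors of norm `τ` in the perp of `a` lie in `W`
  have hperp : ∀ w ∈ perpIn Q E a, Q w = τ → w ∈ W := by
    intro w hw hQw
    obtain ⟨hwE, hwa⟩ := mem_perpIn.1 hw
    have h1 : l • a + w ∈ W := hW _ (E.add_mem (E.smul_mem _ haE) hwE) (by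
      rw [Q_add, Q_smul, polar_smul_left', hwa, hQw, hQa, hτ]
      ring) (by
      rw [polar_add_right, polar_smul_right', polar_self_eq, hwa, hQa, add_zero]
      exact mul_ne_zero hl0 h2c)
    have := W.sub_mem h1 (W.smul_mem l haW)
    simpa using this
  apply le_of_perp h2 haE ha0 haW
  obtain ⟨w₁, hw₁, hQw₁⟩ := universal h2 hE1 (by omega) τ
  have hw₁0 : Q w₁ ≠ 0 := by rw [hQw₁]; exact hτ0
  have hw₁W := hperp w₁ hw₁ hQw₁
  have hE2 := nondeg_perpIn hE1 hw₁ h2 hw₁0
  have hd2 := finrank_perpIn_add hw₁ h2 hw₁0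
  apply le_of_perp h2 hw₁ hw₁0 hw₁W
  obtain ⟨z, hz, hz0⟩ := exists_nonsing hE2 (by omega)
  obtain ⟨hzE, hw₁z⟩ := mem_perpIn.1 hz
  have hd3 := finrank_perpIn_add hz h2 hz0
  -- a second vector of norm `τ`
  obtain ⟨μ, hμ0, hμ⟩ : ∃ μ : F, μ ≠ 0 ∧ τ + μ ^ 2 * Q z ≠ 0 := by
    by_cases h1 : τ + Q z = 0
    · refine ⟨l, hl0, ?_⟩
      have h3 : τ + l ^ 2 * Q z = τ * (1 - l ^ 2) := by linear_combination l ^ 2 * h1
      rw [h3]
      exact mul_ne_zero hτ0 hsq
    · exact ⟨1, one_ne_zero, by simpa using h1⟩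
  set w' := w₁ + μ • z with hw'
  have hw'E : w' ∈ perpIn Q E a := (perpIn Q E a).add_mem hw₁ ((perpIn Q E a).smul_mem _ hzE)
  have hQw' : Q w' = τ + μ ^ 2 * Q z := by
    rw [hw', Q_add_of_perp (by rw [polar_smul_right', hw₁z, mul_zero]), Q_smul, hQw₁]
    ring
  have hw'0 : Q w' ≠ 0 := by rw [hQw']; exact hμ
  have hfw' : 𝔣 w' w₁ = 2 * τ := by
    rw [hw', polar_add_left, polar_self_eq, polar_smul_left', polar_comm (⇑Q) z w₁, hw₁z, hQw₁]
    ring
  set κ := (Q w')⁻¹ * (2 * τ) with hκ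
  have hκ0 : κ ≠ 0 := mul_ne_zero (inv_ne_zero hw'0) (mul_ne_zero h2 hτ0)
  have hw₂ : act (reflectionIso Q w' hw'0) w₁ = w₁ - κ • w' := by
    rw [reflectionIso_act, hfw']
  have hQw₂ : Q (w₁ - κ • w') = τ := by
    rw [← hw₂, Q_act, hQw₁]
  have hw₂W := hperp _ ((perpIn Q E a).sub_mem hw₁ ((perpIn Q E a).smul_mem _ hw'E)) hQw₂
  have hzW : z ∈ W := by
    have h1 : κ • w' ∈ W := by
      have := W.sub_mem hw₁W hw₂W
      simpa using this
    have h3 : w' ∈ W := (W.smul_mem_iff hκ0).1 h1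
    have h4 : μ • z ∈ W := by
      have := W.sub_mem h3 hw₁W
      simpa [hw'] using this
    exact (W.smul_mem_iff hμ0).1 h4
  apply le_of_perp h2 hz hz0 hzW
  have hbot : finrank F (perpIn Q (perpIn Q (perpIn Q E a) w₁) z) = 0 := by omega
  rw [Submodule.finrank_eq_zero] at hbot
  rw [hbot]
  exact bot_le

end Cfsg.Agent.Lib.Classical.Decomp
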