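/-
Maximality of the stabiliser of an orthogonal decomposition into isometric members of dimension at least three, in `Ω` of a quadratic
form in odd dimension and odd characteristic: the final assembly.
-/
import Mathlib
import Cfsg.Agent.Lib.Classical.Decomp.OddMain
import Cfsg.Agent.Lib.Classical.Orth.ReflClass

set_option autoImplicit false
set_option linter.unusedSectionVars false
set_option linter.unusedSimpArgs false
set_option linter.unusedVariables false

namespace Cfsg.Agent.Lib.Classical.Decomp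

open Matrix QuadraticMap Module Cfsg.Geo
open Cfsg.Agent.Lib.Classical.Orth.Basic
open Cfsg.Agent.Lib.Classical.Orth.Spinor
open Cfsg.Agent.Lib.Classical.Orth.CartanDieudonne
open Cfsg.Agent.Lib.Classical.Orth.ReflClass

variable {ι : Type} [Fintype ι] [DecidableEq ι] {F : Type*} [Field F]
variable {Q : QuadraticForm F (ι → F)}

set_option quotPrecheck false in
local notation "𝔣" => polar (⇑Q)
set_option quotPrecheck false in
local notation "𝕀" => ↥(Cfsg.isometryGroup F (⇑Q))

variable {t k : ℕ} {D : Fin t → Submodule F (ι → F)} {π : Fin t → (ι → F) →ₗ[F] (ι → F)}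
variable {M : Subgroup (GL ι F)} {c : F} [Fintype F]

namespace Setup

variable (S : Setup Q k D π M c)
include S

/-- If every vector of `SS` lies in a member, then elements of `M` map members into members. -/
theorem maps_member (hex : ¬ (Fintype.card F = 3 ∧ k = 3)) (hall : ∀ x ∈ SS Q M c, ∃ i, x ∈ D i)
    (g : 𝕀) (hg : (g : GL ι F) ∈ M) (i : Fin t) : ∃ j, ∀ x, x ∈ D i → act g x ∈ D j := by
  have hdim := S.hdim i
  obtain ⟨a, haE, hQa⟩ := universal S.h2 (S.dec.nd i) (by omega) c
  have haS := S.mem_SS_of_mem haE hQa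
  obtain ⟨j, hj⟩ := hall _ (SS_act g hg haS)
  refine ⟨j, ?_⟩
  let W : Submodule F (ι → F) := (D j).comap (Matrix.toLin' ((g : GL ι F) : Matrix ι ι F))
  have hWmem : ∀ x, x ∈ W ↔ act g x ∈ D j := fun x => Iff.rfl
  have hgood : ∀ b ∈ D i, Q b = c → 𝔣 a b ≠ 0 → b ∈ W := by
    intro b hb hQb hab
    have hbS := S.mem_SS_of_mem hb hQb
    obtain ⟨j', hj'⟩ := hall _ (SS_act g hg hbS)
    by_cases hjj : j = j'
    · subst hjj
      exact hj'
    · exfalso
      apply hab
      rw [← polar_act g a b]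
      exact S.dec.orth j j' hjj _ hj _ hj'
  have hle : D i ≤ W := by
    by_cases hk3 : k = 3
    · apply le_of_good_three S.h2 (S.dec.nd i) (by rw [S.dec.dim, hk3]) (fun h => hex ⟨h, hk3⟩) haE S.hc hQa hgood
    · apply le_of_good_large S.h2 (S.dec.nd i) (by rw [S.dec.dim]; have := S.dim3; omega) haE S.hc hQa hgood
  exact fun x hx => hle hx

/-- If `SS` contains all vectors of norm `c` and `M` lies in `Ω`, then `M` contains `Ω`. -/
theorem omega_le (hodd : Odd (Fintype.card ι)) (hcard : 5 ≤ Fintype.card ι)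
    (hle : M ≤ omegaGL (⇑Q)) (hall : ∀ x, Q x = c → x ∈ SS Q M c) : omegaGL (⇑Q) ≤ M := by
  classical
  have hneg2 : negOne Q * negOne Q = 1 := by
    apply ext_act
    intro x
    rw [act_mul, act_negOne, act_negOne, neg_neg]
    change x = (((1 : GL ι F) : GL ι F) : Matrix ι ι F) *ᵥ x
    simp
  let N : Subgroup 𝕀 :=
    { carrier := {g | (g : GL ι F) ∈ M ∨ ((negOne Q * g : 𝕀) : GL ι F) ∈ M}
      one_mem' := Or.inl M.one_mem
      mul_mem' := by
        intro g h hg hh
        rcases hg with hg | hg <;> rcases hh with hh | hh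
        · exact Or.inl (M.mul_mem hg hh)
        · refine Or.inr ?_
          have : negOne Q * (g * h) = g * (negOne Q * h) := by
            rw [← mul_assoc, negOne_comm, mul_assoc]
          rw [this]
          exact M.mul_mem hg hh
        · refine Or.inr ?_
          have : negOne Q * (g * h) = (negOne Q * g) * h := by
            rw [mul_assoc]
          rw [this]
          exact M.mul_mem hg hh
        · refine Or.inl ?_
          have : g * h = (negOne Q * g) * (negOne Q * h) := by
            rw [mul_assoc, ← mul_assoc g, ← negOne_comm, mul_assoc, ← mul_assoc, hneg2, one_mul]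
          rw [this]
          exact M.mul_mem hg hh
      inv_mem' := by
        intro g hg
        rcases hg with hg | hg
        · exact Or.inl (M.inv_mem hg)
        · refine Or.inr ?_
          have : negOne Q * g⁻¹ = (negOne Q * g)⁻¹ := by
            rw [_root_.mul_inv_rev]
            have h1 : (negOne Q)⁻¹ = negOne Q := inv_eq_of_mul_eq_one_left hneg2
            rw [h1, ← negOne_comm]
          rw [this]
          exact M.inv_mem hg }
  have hNmem : ∀ g : 𝕀, g ∈ N ↔ ((g : GL ι F) ∈ M ∨ ((negOne Q * g : 𝕀) : GL ι F) ∈ M) := fun g => Iff.rfl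
  have hcl : classGroup Q c ≤ N := by
    unfold classGroup
    rw [Subgroup.closure_le]
    rintro g ⟨v, s, hs, hQv, hgv⟩
    have hs2 : s⁻¹ ≠ 0 := inv_ne_zero hs
    have hQv0 : Q v ≠ 0 := by
      rw [hQv]
      exact mul_ne_zero S.hc (pow_ne_zero _ hs)
    have hQv' : Q (s⁻¹ • v) = c := by
      rw [Q_smul, hQv]
      field_simp
    obtain ⟨-, h0, hm⟩ := hall _ hQv'
    have hr : reflectionIso Q (s⁻¹ • v) h0 = g := by
      apply Subtype.ext
      apply Units.ext
      rw [hgv]
      change Cfsg.reflectionMatrix (⇑Q) (s⁻¹ • v) = Cfsg.reflectionMatrix (⇑Q) v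
      exact reflectionMatrix_smul Q s⁻¹ hs2 v hQv0
    rw [hr] at hm
    exact Or.inr hm
  have hidx := classGroup_index (Q := Q) S.hQ S.h2 (by omega) (Or.inr (Or.inl hcard)) S.hc
  have hΩ : Cfsg.Omega F (⇑Q) ≤ classGroup Q c := by
    have hnorm : (classGroup Q c).Normal := Subgroup.normal_of_index_eq_two hidx
    change commutator _ ≤ _
    rw [commutator_def, Subgroup.commutator_le]
    intro g₁ _ g₂ _
    rw [commutatorElement_def, Subgroup.mul_mem_iff_of_index_two hidx, inv_mem_iff]
    constructor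
    · intro h
      have := hnorm.conj_mem _ h g₁⁻¹
      simpa [mul_assoc] using this
    · intro h
      exact hnorm.conj_mem _ h g₁
  rintro _ ⟨g, hgΩ, rfl⟩
  rcases (hNmem g).1 (hcl (hΩ hgΩ)) with h1 | h1
  · exact h1
  · exfalso
    obtain ⟨g', hg'Ω, hg'⟩ := hle h1
    have hg'2 : g' = negOne Q * g := Subtype.ext hg'
    have hnΩ : negOne Q ∈ Cfsg.Omega F (⇑Q) := by
      have := (Cfsg.Omega F (⇑Q)).mul_mem hg'Ω ((Cfsg.Omega F (⇑Q)).inv_mem hgΩ)
      rwa [hg'2, mul_inv_cancel_right] at this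
    obtain ⟨h3, h4⟩ := (mem_omega_iff Q S.hQ S.h2 _).1 hnΩ
    have := signs_negOne S.hQ S.h2 hodd
    rw [h3, h4] at this
    exact absurd this (by decide)

end Setup

/-- **Maximality of the stabiliser of an orthogonal decomposition.** -/
theorem maximal_odd (hQ : (polarBilin Q).Nondegenerate) (h2 : (2 : F) ≠ 0) (hodd : Odd (Fintype.card ι))
    (hcard : 5 ≤ Fintype.card ι) (hdec : Dec Q k D π) (iso : ∀ i j, AreIsometricFor (⇑Q) (D i) (D j))
    (hk : 3 ≤ k) (ht : 2 ≤ t) (hex : ¬ (Fintype.card F = 3 ∧ k = 3)) :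
    IsMaximalIn (omegaGL (⇑Q)) (decompositionStabilizer D ⊓ omegaGL (⇑Q)) := by
  classical
  obtain ⟨c, hc, good⟩ := exists_good_class hQ h2 hodd
  set d : F := c * 2⁻¹ with hdd
  have hd : 2 * d = c := by
    rw [hdd]
    field_simp
  have hd0 : d ≠ 0 := by
    rintro h
    apply hc
    rw [← hd, h, mul_zero]
  refine ⟨?_, ?_⟩
  · refine SetLike.lt_iff_le_and_exists.2 ⟨inf_le_right, ?_⟩
    have S0 : Setup Q k D π (decompositionStabilizer D ⊓ omegaGL (⇑Q)) c := ⟨hdec, hQ, h2, hc, good, le_rfl, hk⟩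
    let i₀ : Fin t := ⟨0, by omega⟩
    let j₀ : Fin t := ⟨1, by omega⟩
    have hij : i₀ ≠ j₀ := by
      intro h
      have := congrArg Fin.val h
      simp [i₀, j₀] at this
    have hdi := S0.hdim i₀
    obtain ⟨u, hu, hQu⟩ := universal h2 (hdec.nd i₀) (by omega) d
    obtain ⟨v, hv, hQv⟩ := universal h2 (hdec.nd j₀) (by rw [hdec.dim]; omega) d
    have huv : 𝔣 u v = 0 := hdec.orth i₀ j₀ hij u hu v hv
    have hQa : Q (u + v) = c := by
      rw [Q_add_of_perp huv, hQu, hQv, ← hd]
      ring
    have ha0 : Q (u + v) ≠ 0 := by rw [hQa]; exact hc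
    have hgΩ : negOne Q * reflectionIso Q (u + v) ha0 ∈ Cfsg.Omega F (⇑Q) :=
      (good _ ha0).2 (by rw [hQa, div_self hc]; exact IsSquare.one)
    refine ⟨_, ⟨_, hgΩ, rfl⟩, ?_⟩
    rintro ⟨hst, -⟩
    have hneg := S0.negOne_stab
    have hr := (decompositionStabilizer D).mul_mem hneg hst
    have hreq : ((negOne Q : 𝕀) : GL ι F) *
        ((Subgroup.subtype (Cfsg.isometryGroup F (⇑Q))) (negOne Q * reflectionIso Q (u + v) ha0)) =
        ((reflectionIso Q (u + v) ha0 : 𝕀) : GL ι F) := by
      change ((negOne Q * (negOne Q * reflectionIso Q (u + v) ha0) : 𝕀) : GL ι F) = _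
      congr 1
      apply ext_act
      intro x
      rw [act_mul, act_mul, act_negOne, act_negOne, neg_neg]
    rw [hreq] at hr
    obtain ⟨σ, hσ⟩ := hr
    have hE1 := nondeg_perpIn (hdec.nd i₀) hu h2 (by rw [hQu]; exact hd0)
    have hd1 := finrank_perpIn_add hu h2 (Q := Q) (by rw [hQu]; exact hd0)
    obtain ⟨x, hx, hx0⟩ := exists_nonsing hE1 (by omega)
    obtain ⟨hxE, hux⟩ := mem_perpIn.1 hx
    have hxne : x ≠ 0 := by
      rintro rfl
      exact hx0 (QuadraticMap.map_zero _)
    have hvx : 𝔣 v x = 0 := hdec.orth j₀ i₀ hij.symm v hv x hxE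
    have hfix : act (reflectionIso Q (u + v) ha0) x = x := by
      rw [reflectionIso_act, polar_add_left, hux, hvx]
      simp
    have hm1 : act (reflectionIso Q (u + v) ha0) x ∈ D (σ i₀) := by
      rw [← hσ i₀]
      exact ⟨x, hxE, rfl⟩
    rw [hfix] at hm1
    have hσi : σ i₀ = i₀ := by
      by_contra hne
      exact hxne (hdec.eq_zero_of_mem_mem hne hm1 hxE)
    have hm2 : act (reflectionIso Q (u + v) ha0) u ∈ D (σ i₀) := by
      rw [← hσ i₀]
      exact ⟨u, hu, rfl⟩
    rw [hσi, reflectionIso_act, polar_add_left, polar_self_eq, polar_comm (⇑Q) v u, huv, hQu, hQa, add_zero, hd,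
      inv_mul_cancel₀ hc, one_smul] at hm2
    have hm3 : v ∈ D i₀ := by
      have h9 := (D i₀).neg_mem hm2
      have h10 : -(u - (u + v)) = v := by abel
      rwa [h10] at h9
    have := hdec.eq_zero_of_mem_mem hij hm3 hv
    apply hd0
    rw [← hQv, this, QuadraticMap.map_zero]
  · intro M hHM hMΩ
    have S : Setup Q k D π M c := ⟨hdec, hQ, h2, hc, good, hHM, hk⟩
    by_cases hall : ∀ x ∈ SS Q M c, ∃ i, x ∈ D i
    · left
      apply le_antisymm _ hHM
      intro g hg
      refine ⟨?_, hMΩ hg⟩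
      obtain ⟨g', -, rfl⟩ := hMΩ hg
      apply mem_stab_of_maps hdec (by omega)
      intro i
      exact S.maps_member hex hall g' hg i
    · right
      push Not at hall
      obtain ⟨a, ha, hno⟩ := hall
      have ha0 : a ≠ 0 := by
        rintro rfl
        apply hc
        rw [← ha.1, QuadraticMap.map_zero]
      obtain ⟨i, j, hij, hi, hj⟩ := hdec.exists_two_comps ha0 hno
      obtain ⟨u, hu, v, hv, hQu, hQv, huv⟩ := S.step1 hd ha hij hi hj
      have hh := S.half_of_one hd0 hij hu hv hQu hQv huv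
      have hh2 := S.half_all hd0 iso hij hh
      have hA := S.all_mem hd hh2 hex
      exact le_antisymm hMΩ (S.omega_le hodd hcard hMΩ hA)

end Cfsg.Agent.Lib.Classical.Decomp
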